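import Cfsg.Agent.H25.UGDefs
import Cfsg.Agent.H11.SgExc

/-! The constituents of the components of the Weil character are constant on the torus, with a
small integer value. -/

set_option autoImplicit false

namespace Cfsg.Agent.H5.UgCon

open Cfsg Cfsg.Agent.H11 Cfsg.Agent.H12 Cfsg.Agent.H25.UG Cfsg.Agent.H77.Sg
open scoped Classical ComplexConjugate

universe u

theorem int_val {P : Type u} [Group P] [Fintype P] {f : P → ℂ} (hf : IsCharacter P f)
    {μ : P →* ℂˣ} (hμ : μ ≠ 1) {c : ℂ} (hc : ∀ x, x ≠ 1 → f x = c) :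
    ∃ (m : ℕ) (k : ℤ), c = k ∧ f 1 = m * Nat.card P + k := by
  obtain ⟨a, ha⟩ := exists_nat_classInner hf isCharacter_one
  obtain ⟨m, hm⟩ := exists_nat_classInner hf (isCharacter_monoidHom μ)
  have key : ∀ η : P → ℂ, (Nat.card P : ℂ) * classInner f η =
      c * conj (∑ g, η g) + (f 1 - c) * conj (η 1) := fun η => by
    rw [card_mul_classInner, map_sum, Finset.mul_sum, ← sub_eq_iff_eq_add', ← Finset.sum_sub_distrib,
      Finset.sum_eq_single 1 (fun g _ hg => by rw [hc g hg, sub_self]) (by simp), sub_mul]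
  have h1 := key fun _ => 1
  have h2 := key fun g => μ g
  rw [sum_irr_eq_zero (isIrrCharacter_monoidHom μ) fun e => hμ (MonoidHom.ext fun g =>
    Units.ext (congrFun e g)), hm] at h2
  rw [ha] at h1
  simp only [Finset.sum_const, Finset.card_univ, nsmul_eq_mul, mul_one, map_natCast, map_one,
    map_zero, mul_zero, zero_add, Units.val_one, ← Nat.card_eq_fintype_card] at h1 h2
  have h3 : c = a - m := mul_left_cancel₀ (card_ne_zero P) (by linear_combination h2 - h1)
  exact ⟨m, a - m, by push_cast; exact h3, by push_cast; linear_combination h3 - h2⟩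

theorem bound {G : Type u} [Group G] [Fintype G] (U : UC G)
    (hz : ∀ c : U.C, U.τ c = 1 → (c : G) ∈ Subgroup.center G) {χ : G → ℂ}
    (hχ : IsIrrCharacter G χ) {k : ℂ} (hk : ∀ x ∈ U.P, x ≠ 1 → χ x = k) :
    ‖k‖ ^ 2 * (Nat.card U.P - 1) ≤ U.e * Nat.card U.P := by
  obtain ⟨φ, hφ⟩ : ∃ φ : U.C → ℂ, ∀ c, φ c = if U.τ c = 1 then 0 else χ c := ⟨_, fun _ => rfl⟩
  have cl := isClassFunction_of_irr hχ
  have hP : (0 : ℝ) < Nat.card U.P := by exact_mod_cast Nat.card_pos
  obtain ⟨A, hA⟩ : ∃ A : ℝ, A = (Nat.card U.P : ℝ)⁻¹ * (‖k‖ ^ 2 * (Nat.card U.P - 1)) := ⟨_, rfl⟩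
  have h0 : classInner φ φ = A := by
    have h1 := classInner_comp_of_surjective U.τ (fun y => let ⟨x, hx⟩ := U.τsurj y; ⟨_, hx⟩)
      (fun y => if y = 1 then 0 else ((‖k‖ ^ 2 : ℝ) : ℂ)) fun _ => 1
    have h2 : ∑ y : U.P, (if y = 1 then 0 else ((‖k‖ ^ 2 : ℝ) : ℂ)) =
        ((‖k‖ ^ 2 : ℝ) : ℂ) * (Nat.card U.P - 1) := by
      rw [Finset.sum_ite, Finset.sum_const_zero, zero_add, Finset.sum_const, Finset.filter_ne',
        Finset.card_erase_of_mem (Finset.mem_univ _), Finset.card_univ, nsmul_eq_mul,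
        Nat.cast_pred Fintype.card_pos, Nat.card_eq_fintype_card, mul_comm]
    rw [classInner_one_right (G := U.P), h2] at h1
    rw [hA]
    push_cast at h1 ⊢
    rw [← h1, classInner_def, classInner_def]
    refine congrArg _ (Finset.sum_congr rfl fun c _ => ?_)
    rw [hφ]
    split_ifs with h
    · simp
    obtain ⟨x, hx⟩ := U.τsurj (U.τ c)
    obtain ⟨l, hl, -⟩ := exists_monoidHom_of_le_center hχ _ le_rfl
    have h3 := hl ⟨_, hz (c * (⟨x, U.hPC x.2⟩ : U.C)⁻¹) (by rw [map_mul, map_inv, hx, mul_inv_cancel])⟩ x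
    rw [hk x x.2 fun e => h (by rw [← hx, ← map_one U.τ]; exact congrArg _ (Subtype.ext e))] at h3
    simp only [Subgroup.coe_mul, Subgroup.coe_inv, inv_mul_cancel_right] at h3
    rw [Complex.mul_conj, Complex.normSq_eq_norm_sq, h3, norm_mul, norm_monoidHom_apply, one_mul]
    simp
  have h1 : classInner (indFun U.C φ) χ = A := by
    rw [H14.classInner_indFun_left _ _ cl, ← h0, classInner_def, classInner_def]
    refine congrArg _ (Finset.sum_congr rfl fun c _ => ?_)
    rw [hφ]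
    split_ifs <;> simp
  have h2 : classInner (indFun U.C φ) (indFun U.C φ) = U.e * A := by
    have h3 : ∀ n, U.cj φ n = φ := fun n => funext fun c => by
      have h4 : U.τ (U.κ n c) = 1 ↔ U.τ c = 1 :=
        ⟨fun h => by simpa using U.τκ n⁻¹ _ h, U.τκ n c⟩
      rw [UC.cj, hφ, hφ, U.hκ, cl]
      simp only [h4]
    rw [UC.classInner_ind_ind fun c h => by rw [hφ, if_pos h], UC.s]
    simp only [h3, h0, Finset.sum_const, Finset.card_univ, nsmul_eq_mul, ← Nat.card_eq_fintype_card,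
      ← UC.card_mul_e (U := U), Nat.cast_mul]
    rw [mul_assoc, inv_mul_cancel_left₀ (card_ne_zero _)]
  have h3 := classInner_self_re_nonneg (indFun U.C φ - (A : ℂ) • χ)
  rw [classInner_sub_left, classInner_sub_right, classInner_sub_right, classInner_smul_left,
    classInner_smul_left, classInner_smul_right, classInner_smul_right, ← conj_classInner _ χ, h1, h2,
    classInner_irr_self hχ] at h3
  simp only [Complex.conj_ofReal, mul_one, sub_self, sub_zero, Complex.sub_re, Complex.mul_re,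
    Complex.natCast_re, Complex.ofReal_re, Complex.natCast_im, Complex.ofReal_im, mul_zero] at h3
  have h4 : A ≤ U.e := by
    by_contra h
    push Not at h
    have : (0 : ℝ) ≤ U.e := Nat.cast_nonneg _
    nlinarith
  rwa [hA, inv_mul_le_iff₀ hP, mul_comm (Nat.card U.P : ℝ)] at h4

theorem con (uc : H25.UG.UcStmt.{u}) (small : H25.UG.SmallStmt.{u}) : H25.UG.ConStmt.{u} := by
  intro E K _ _ _ _ _ σ B q R t G _ c z ν χ hχ h0
  have hPG : Pt E K t ≤ G := by
    rintro _ ⟨s, hs, rfl⟩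
    exact (c.mem s).2 ⟨1, one_mem _, s, hs, (one_mul _).symm⟩
  obtain ⟨U, hP, hC, -, he, hτ⟩ := (uc E K σ B q R t G c).2 G hPG le_rfl
  have ht : Nat.card U.P = t := by
    rw [hP, Nat.card_congr (Subgroup.subgroupOfEquivOfLe hPG).toEquiv, c.cardPt]
  have he7 : U.e ≤ 7 := Nat.le_of_dvd (by decide) he
  have t43 := c.t43
  have hπ : IsCharacter G fun g : G => ze q ν g.1 + dl ν := by
    have h1 := z.chr G c.le (fun s hs => (c.mem s).2 ⟨s, hs, 1, one_mem _, (mul_one _).symm⟩) ν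
    rw [dl]
    split_ifs
    · exact isCharacter_add h1 isCharacter_one
    · simpa using h1
  have hd : charDegree (fun g : G => ze q ν g.1 + dl ν) = R * t := by
    rw [charDegree, OneMemClass.coe_one, z.deg, sub_add_cancel, Complex.natCast_re,
      Nat.floor_natCast]
  have h1 := SgX.exc G U _ χ hπ (fun d hd => ?_) (fun ψ hψ hk => ?_) hχ h0
  · obtain ⟨x, hx⟩ : ∃ x : U.P, x ≠ 1 :=
      have := Finite.one_lt_card_iff_nontrivial.1 (by omega : 1 < Nat.card U.P)
      exists_ne 1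
    obtain ⟨μ, hμ⟩ : ∃ μ : U.P →* ℂˣ, μ ≠ 1 :=
      have := SgX.fin_hom (U := U)
      have := Finite.one_lt_card_iff_nontrivial.1
        (by rw [UC.card_hom]; omega : 1 < Nat.card (U.P →* ℂˣ))
      exists_ne 1
    have h2 : ∀ y ∈ U.P, y ≠ 1 → χ y = χ x := fun y hy h => h1 y hy x x.2 h fun e => hx (Subtype.ext e)
    obtain ⟨m, k, h3, h4⟩ := int_val (isCharacter_restrict (H11.isCharacter_of_irr hχ) U.P) hμ
      fun y hy => h2 y y.2 fun e => hy (Subtype.ext e)
    have h5 := bound U (fun d hd => by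
      obtain ⟨a, ha⟩ := (hτ d).1 hd
      refine Subgroup.mem_center_iff.2 fun g => Subtype.ext (LinearEquiv.ext fun y => ?_)
      change g.1 (d.1.1 y) = d.1.1 (g.1 y)
      rw [ha, ha, map_smul]) hχ h2
    rw [h3, ht, Complex.norm_intCast] at h5
    rw [ht, OneMemClass.coe_one] at h4
    refine ⟨m, k, ?_, ?_, fun g hg h => (h2 g (hP ▸ hg) h).trans h3⟩
    · by_contra h
      have h6 : (3 : ℝ) ≤ |(k : ℝ)| := by exact_mod_cast (by omega : 3 ≤ |k|)
      have h7 : (43 : ℝ) ≤ t := by exact_mod_cast t43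
      have h8 : (U.e : ℝ) ≤ 7 := by exact_mod_cast he7
      have h9 : (9 : ℝ) ≤ |(k : ℝ)| ^ 2 := by nlinarith
      nlinarith
    · obtain ⟨n, hn⟩ := exists_nat_degree (H11.isCharacter_of_irr hχ)
      rw [charDegree, hn, Complex.natCast_re, Nat.floor_natCast]
      rw [hn] at h4
      exact_mod_cast h4
  · obtain ⟨a, ha⟩ : d.1 ∈ (mulH E K).range.subgroupOf G := hC ▸ d.2
    change mulH E K a = d.1.1 at ha
    obtain ⟨w, hw, s, hs, e⟩ := (c.mem a).1 (ha ▸ d.1.2)
    rw [← ha, z.val ν a (e ▸ mul_mem (c.ZT hw) (c.PT hs)) fun h => hd ((hτ d).2 ?_), neg_add_cancel]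
    obtain ⟨b, -, hb⟩ := c.zE a h
    exact ⟨b, fun y => by rw [← ha, mulH_apply, hb, Algebra.smul_def]⟩
  · have h2 := small E K σ B q R t G c ψ hψ (hP ▸ hk)
    have h3 : 7 * R + 1 < t := by
      rcases c.hR with h | h
      · omega
      · have := c.big (by have := c.q13 h.1; omega)
        nlinarith [h.1]
    rw [hd, ht]
    obtain ⟨s, rfl⟩ : ∃ s, t = s + 1 := ⟨t - 1, by omega⟩
    calc _ ≤ R * (s + 1) * 7 := Nat.mul_le_mul_left _ he7
      _ < (7 * R + 1) * s := by nlinarith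
      _ ≤ _ := Nat.mul_le_mul_right _ h2

end Cfsg.Agent.H5.UgCon
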