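import Cfsg.Agent.H63.AnDefs2

/-! Project AN, piece P4B: a twist of an involution with four transpositions. -/

set_option autoImplicit false
set_option linter.unusedSectionVars false

namespace Cfsg.Agent.H5.AnP4b

open Cfsg Cfsg.Agent.H63 Cfsg.Agent.H63.AN Subgroup
open Equiv (swap Perm)
open Equiv.Perm (sign)
open scoped commutatorElement

/-! ### The model on eight points -/

def z8 : Perm (Fin 8) := swap 0 1 * swap 2 3 * swap 4 5 * swap 6 7
def w12 : Perm (Fin 8) := swap 0 1 * swap 2 3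
def w13 : Perm (Fin 8) := swap 0 1 * swap 4 5
def gn : Fin 3 → Perm (Fin 8) := ![swap 0 2 * swap 1 3, swap 2 4 * swap 3 5, swap 4 6 * swap 5 7]
def wd (w : List (Fin 3)) : Perm (Fin 8) := (w.map gn).prod
def WL : List (List (Fin 3)) :=
  [[], [0], [1], [2], [0, 1], [0, 2], [1, 0], [1, 2], [2, 1], [0, 1, 0], [0, 1, 2], [0, 2, 1],
    [1, 0, 2], [1, 2, 1], [2, 1, 0], [0, 1, 0, 2], [0, 1, 2, 1], [0, 2, 1, 0], [1, 0, 2, 1],
    [1, 2, 1, 0], [0, 1, 0, 2, 1], [0, 1, 2, 1, 0], [1, 0, 2, 1, 0], [0, 1, 0, 2, 1, 0]]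
def P3 (i j k : Bool) : Perm (Fin 8) := pw i w12 * pw j w13 * pw k z8
def T4 (a b c d : Bool) : Perm (Fin 8) :=
  pw a (swap 0 1) * pw b (swap 2 3) * pw c (swap 4 5) * pw d (swap 6 7)
def Bf (a b c d : Fin 8) : Fin 8 → Fin 8 := ![a, z8 a, b, z8 b, c, z8 c, d, z8 d]
def cmf (f : Fin 8 → Fin 8) (n : Fin 3) (i : Fin 8) : Fin 8 := f (gn n (f (gn n i)))

theorem gn_mem : ∀ n, gn n * z8 = z8 * gn n ∧ sign (gn n) = 1 ∧ gn n * gn n = 1 := by
  decide +kernel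

theorem wd_mem (w : List (Fin 3)) : wd w ∈ CA z8 := list_prod_mem fun x hx => by
  obtain ⟨n, -, rfl⟩ := List.mem_map.1 hx
  exact mem_CA.2 ⟨(gn_mem n).1, (gn_mem n).2.1⟩

theorem z_facts : z8 * z8 = 1 ∧ z8.support.card = 8 ∧ (∀ i, z8 i ≠ i) ∧
    z8 * wd [0, 2] * w13 = w13 * wd [0, 2] ∧ wd [1] * w12 * (wd [1])⁻¹ = w13 ∧
    z8 0 = 1 ∧ z8 2 = 3 ∧ z8 4 = 5 ∧ z8 6 = 7 := by
  decide +kernel

theorem k1 : ∀ a b c d : Fin 8, (∀ i, Bf a b c d (Bf a b c d i) = i) →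
    (∀ i, Bf a b c d i = i) ∨ (∀ i, Bf a b c d i = z8 i) ∨ ∃ n : Fin 3,
      (∃ i, cmf (Bf a b c d) n (cmf (Bf a b c d) n i) ≠ i) ∨
      ((∀ i, cmf (Bf a b c d) n i ≠ i) ∧ ∃ i, cmf (Bf a b c d) n i ≠ z8 i) ∨
      ∃ i j k : Bool, (i || j) = true ∧ ∀ m, cmf (Bf a b c d) n m = P3 i j k m := by
  decide +kernel

theorem k2 : ∀ i j k i' j' k' : Bool, P3 i j k ≠ 1 → P3 i j k ≠ z8 → P3 i' j' k' ≠ 1 →
    P3 i' j' k' ≠ z8 → P3 i j k * P3 i' j' k' ≠ 1 → P3 i j k * P3 i' j' k' ≠ z8 →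
    ∃ w ∈ WL, wd w * w12 = P3 i j k * wd w ∧ wd w * w13 = P3 i' j' k' * wd w := by
  decide +kernel

theorem k3 : ∀ i j k : Bool, (i || j) = true → ∃ w ∈ WL, wd w * P3 i j k = w12 * wd w := by
  decide +kernel

theorem k4 : ∀ a b c d : Bool, sign (T4 a b c d) = 1 → ∃ i j k, T4 a b c d = P3 i j k := by
  decide +kernel

theorem k5 : ∀ i j k : Bool, sign (P3 i j k) = 1 ∧ (∀ m, P3 i j k m = m ∨ P3 i j k m = z8 m) ∧
    (P3 i j k = 1 ∨ P3 i j k = z8 ∨ (z8 * P3 i j k).support.card = 4) := by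
  decide +kernel

theorem k6 : ∀ a b c d : Bool, T4 a b c d 0 = (if a then 1 else 0) ∧
    T4 a b c d 2 = (if b then 3 else 2) ∧ T4 a b c d 4 = (if c then 5 else 4) ∧
    T4 a b c d 6 = (if d then 7 else 6) ∧ T4 a b c d * z8 = z8 * T4 a b c d := by
  decide +kernel

theorem k7 : w12 = P3 true false false ∧ w13 = P3 false true false ∧ w12 ≠ 1 ∧ w12 ≠ z8 ∧
    w13 ≠ 1 ∧ w13 ≠ z8 ∧ w12 * w13 ≠ 1 ∧ w12 * w13 ≠ z8 := by
  decide +kernel

theorem eq_Bf {β : Perm (Fin 8)} (h : β * z8 = z8 * β) (i : Fin 8) :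
    β i = Bf (β 0) (β 2) (β 4) (β 6) i := by
  have e : ∀ i, β (z8 i) = z8 (β i) := fun i => DFunLike.congr_fun h i
  obtain ⟨-, -, -, -, -, e0, e2, e4, e6⟩ := z_facts
  fin_cases i
  exacts [rfl, (congrArg β e0).symm.trans (e 0), rfl, (congrArg β e2).symm.trans (e 2), rfl,
    (congrArg β e4).symm.trans (e 4), rfl, (congrArg β e6).symm.trans (e 6)]

theorem gen3 (R : Perm (Fin 8) → Prop) (h1 : R 1) (hm : ∀ a b, R a → R b → R (a * b))
    (ha : R w12) (hb : R w13) (hc : R z8) (i j k : Bool) : R (P3 i j k) := by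
  have : ∀ (b : Bool) g, R g → R (pw b g) := fun b g h => by cases b <;> simpa [pw]
  exact hm _ _ (hm _ _ (this _ _ ha) (this _ _ hb)) (this _ _ hc)

/-! ### Generalities -/

variable {α : Type} [Fintype α] [DecidableEq α]

theorem PP_mul {p q r : Perm α} (h : p * p = 1) (hq : q ∈ PP p) (hr : r ∈ PP p) :
    q * r ∈ PP p := by
  refine ⟨by rw [Equiv.Perm.sign_mul, hq.1, hr.1, mul_one], fun y => ?_⟩
  have : p (p y) = y := DFunLike.congr_fun h y
  rw [Equiv.Perm.mul_apply]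
  rcases hr.2 y with e | e <;> rw [e]
  · exact hq.2 y
  · rcases hq.2 (p y) with e' | e' <;> rw [e']
    exacts [Or.inr rfl, Or.inl this]

theorem PP_conj {p q b : Perm α} (hb : Commute b p) (hq : q ∈ PP p) : b * q * b⁻¹ ∈ PP p := by
  refine ⟨by simp [hq.1], fun y => ?_⟩
  have : b (p (b⁻¹ y)) = p y := by
    have := DFunLike.congr_fun hb.eq (b⁻¹ y)
    simpa using this
  rw [Equiv.Perm.mul_apply, Equiv.Perm.mul_apply]
  rcases hq.2 (b⁻¹ y) with e | e <;> rw [e]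
  exacts [Or.inl (by simp), Or.inr this]

theorem PP_comm {p q : Perm α} (h : p * p = 1) (hq : q ∈ PP p) : q * p = p * q := by
  ext y
  have : p (p y) = y := DFunLike.congr_fun h y
  change q (p y) = p (q y)
  rcases hq.2 y with e | e <;> rcases hq.2 (p y) with e' | e'
  · rw [e, e']
  · have e2 : p y = y := q.injective (e'.trans (this.trans e.symm))
    rw [e2, e, e2]
  · have e2 : y = p y := q.injective (e.trans e'.symm)
    rw [e', e, this]
    exact e2.symm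
  · rw [e, e']

theorem PP_sq {p q : Perm α} (h : p * p = 1) (hq : q ∈ PP p) : q * q = 1 := by
  ext y
  have e1 : p (p y) = y := DFunLike.congr_fun h y
  have e2 : q (p y) = p (q y) := DFunLike.congr_fun (PP_comm h hq) y
  change q (q y) = y
  rcases hq.2 y with e | e
  · rw [e, e]
  · rw [e, e2, e, e1]

/-- the embedding of the model -/
noncomputable def e8 (x : Fin 8 ↪ α) : Perm (Fin 8) →* Perm α := Equiv.Perm.viaEmbeddingHom x

variable (x : Fin 8 ↪ α)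

theorem e8_apply (a : Perm (Fin 8)) (i : Fin 8) : e8 x a (x i) = x (a i) :=
  Equiv.Perm.viaEmbedding_apply a x i

theorem e8_not (a : Perm (Fin 8)) {e : α} (h : ∀ i, x i ≠ e) : e8 x a e = e :=
  Equiv.Perm.viaEmbedding_apply_of_notMem a x e (by rintro ⟨i, rfl⟩; exact h i rfl)

theorem e8_inj : Function.Injective (e8 x) := Equiv.Perm.viaEmbeddingHom_injective x

theorem e8_sign (a : Perm (Fin 8)) : sign (e8 x a) = sign a := by
  exact @Equiv.Perm.sign_extendDomain _ _ _ _ _ _ a _ (fun _ => Classical.propDecidable _) _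

theorem e8_card (a : Perm (Fin 8)) : (e8 x a).support.card = a.support.card := by
  exact @Equiv.Perm.card_support_extend_domain _ _ _ _ _ _ _ (fun _ => Classical.propDecidable _) _ _

theorem e8_CA {a : Perm (Fin 8)} (h : a ∈ CA z8) : e8 x a ∈ CA (e8 x z8) :=
  mem_CA.2 ⟨(mem_CA.1 h).1.map _, by rw [e8_sign, (mem_CA.1 h).2]⟩

theorem res {b : Perm α} (hb : Commute b (e8 x z8)) : ∃ β : Perm (Fin 8),
    (∀ i, b (x i) = x (β i)) ∧ β * z8 = z8 * β ∧ ∀ σ, b * e8 x σ * b⁻¹ = e8 x (β * σ * β⁻¹) := by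
  have h1 : ∀ i, ∃ k, b (x i) = x k := fun i => by
    by_contra hc
    push Not at hc
    have := DFunLike.congr_fun hb.eq (x i)
    rw [Equiv.Perm.mul_apply, Equiv.Perm.mul_apply, e8_apply, e8_not x _ fun k => (hc k).symm] at this
    exact z_facts.2.2.1 i (x.injective (b.injective this))
  choose g hg using h1
  have gi : Function.Injective g := fun i k e =>
    x.injective (b.injective (by rw [hg, hg, e]))
  let β : Perm (Fin 8) := Equiv.ofBijective g ⟨gi, Finite.injective_iff_surjective.1 gi⟩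
  have hβ : ∀ i, b (x i) = x (β i) := hg
  have h2 : ∀ σ, b * e8 x σ * b⁻¹ = e8 x (β * σ * β⁻¹) := fun σ => by
    rw [mul_inv_eq_iff_eq_mul]
    ext y
    rw [Equiv.Perm.mul_apply, Equiv.Perm.mul_apply]
    by_cases h : ∃ k, x k = y
    · obtain ⟨k, rfl⟩ := h
      rw [e8_apply, hβ, hβ, e8_apply]
      simp
    · push Not at h
      rw [e8_not x _ h, e8_not]
      intro k e
      exact h (β⁻¹ k) (b.injective (by rw [hβ, ← e]; simp))
  refine ⟨β, hβ, ?_, h2⟩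
  have := h2 z8
  rw [hb.eq, mul_inv_cancel_right] at this
  exact (eq_mul_inv_iff_mul_eq.1 (e8_inj x this)).symm

theorem P3_PP (i j k : Bool) : e8 x (P3 i j k) ∈ PP (e8 x z8) := by
  refine ⟨by rw [e8_sign, (k5 i j k).1], fun y => ?_⟩
  by_cases h : ∃ m, x m = y
  · obtain ⟨m, rfl⟩ := h
    rw [e8_apply, e8_apply]
    exact ((k5 i j k).2.1 m).imp (congrArg x) (congrArg x)
  · push Not at h
    exact Or.inl (e8_not x _ h)

theorem PP_P3 {q : Perm α} (hq : q ∈ PP (e8 x z8)) : ∃ i j k, q = e8 x (P3 i j k) := by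
  obtain ⟨β, h1, h2, -⟩ := res x (b := q) (PP_comm (by rw [← map_mul, z_facts.1, map_one]) hq)
  have e1 : q = e8 x β := by
    ext y
    by_cases h : ∃ m, x m = y
    · obtain ⟨m, rfl⟩ := h
      rw [e8_apply, h1]
    · push Not at h
      rw [e8_not x _ h]
      rcases hq.2 y with e | e
      exacts [e, e.trans (e8_not x _ h)]
  have e2 : ∀ m, β m = m ∨ β m = z8 m := fun m => by
    have := hq.2 (x m)
    rw [h1, e8_apply] at this
    exact this.imp (fun e => x.injective e) fun e => x.injective e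
  have e3 : ∀ m, β m = if decide (β m = z8 m) then z8 m else m := fun m => by
    by_cases e : β m = z8 m
    · simp [e]
    · simp [e, (e2 m).resolve_right e]
  obtain ⟨-, -, -, -, -, z0, z2, z4, z6⟩ := z_facts
  obtain ⟨t0, t2, t4, t6, tz⟩ := k6 (decide (β 0 = z8 0)) (decide (β 2 = z8 2))
    (decide (β 4 = z8 4)) (decide (β 6 = z8 6))
  have e4 : β = T4 (decide (β 0 = z8 0)) (decide (β 2 = z8 2)) (decide (β 4 = z8 4))
      (decide (β 6 = z8 6)) := Equiv.ext fun m => by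
    rw [eq_Bf h2, eq_Bf tz, t0, t2, t4, t6, ← z0, ← z2, ← z4, ← z6, ← e3, ← e3, ← e3, ← e3]
  obtain ⟨i, j, k, e⟩ := k4 _ _ _ _ (by rw [← e4, ← e8_sign x, ← e1, hq.1])
  exact ⟨i, j, k, by rw [e1, e4, e]⟩

theorem main (kp : KpStmt) (h9 : 9 ≤ Fintype.card α) {φ φ' : Perm α → Perm α} {T : ℕ → Prop}
    (h : Tw (e8 x z8) (e8 x z8) φ φ' T) (y8 : T 8) (n4 : ¬ T 4) :
    ∃ c ∈ CA (e8 x z8), ∀ q ∈ PP (e8 x z8), φ q = c * q * c⁻¹ := by
  obtain ⟨h1, h2⟩ := h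
  have PC : ∀ q ∈ PP (e8 x z8), q ∈ CA (e8 x z8) := fun q hq =>
    mem_CA.2 ⟨PP_comm h1.p2 hq, hq.1⟩
  have pP : e8 x z8 ∈ PP (e8 x z8) := ⟨h1.pe, fun _ => Or.inr rfl⟩
  have oP : 1 ∈ PP (e8 x z8) := ⟨by simp, fun _ => Or.inl rfl⟩
  let Φ : CA (e8 x z8) →* Perm α := MonoidHom.mk' (fun a => φ a) fun a b => h1.mul _ a.2 _ b.2
  have f1 : φ 1 = 1 := Φ.map_one
  have ev : ∀ q ∈ PP (e8 x z8), sign (φ q) = 1 := fun q hq => by
    have : ⁅CA (e8 x z8), CA (e8 x z8)⁆ ≤ (sign.comp Φ).ker.map (CA (e8 x z8)).subtype :=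
      commutator_le.2 fun a ha b hb => ⟨⁅(⟨a, ha⟩ : CA (e8 x z8)), ⟨b, hb⟩⁆, by
        rw [SetLike.mem_coe, MonoidHom.mem_ker, map_commutatorElement,
          commutatorElement_eq_one_iff_mul_comm, mul_comm], rfl⟩
    obtain ⟨a, ha, rfl⟩ := this ((kp α h9).2 _ h1.p2 h1.pe q hq)
    exact ha
  have Qc : ∀ b ∈ CA (e8 x z8), ∀ c ∈ φ '' PP (e8 x z8), b * c * b⁻¹ ∈ φ '' PP (e8 x z8) := by
    rintro b hb _ ⟨q, hq, rfl⟩
    exact ⟨_, PP_conj (h2.cm b hb) hq, h1.cp q (PC q hq) b hb⟩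
  have Qm : ∀ c ∈ φ '' PP (e8 x z8), ∀ d ∈ φ '' PP (e8 x z8), c * d ∈ φ '' PP (e8 x z8) := by
    rintro _ ⟨q, hq, rfl⟩ _ ⟨r, hr, rfl⟩
    exact ⟨_, PP_mul h1.p2 hq hr, h1.mul q (PC q hq) r (PC r hr)⟩
  have Q2 : ∀ c ∈ φ '' PP (e8 x z8), c * c = 1 := by
    rintro _ ⟨q, hq, rfl⟩
    rw [← h1.mul q (PC q hq) q (PC q hq), PP_sq h1.p2 hq, f1]
  have Q8 : ∀ c ∈ φ '' PP (e8 x z8), c.support.card = 8 → c = e8 x z8 := by
    rintro _ ⟨q, hq, rfl⟩ h8
    have cl := h1.cl q (PC q hq) (PP_sq h1.p2 hq) (ev q hq)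
    obtain ⟨i, j, k, rfl⟩ := PP_P3 x hq
    rcases (k5 i j k).2.2 with e | e | e
    · rw [e, map_one, f1] at h8
      simp at h8
    · rw [e, h1.pp]
    · rw [← map_mul, e8_card, e, h8] at cl
      tauto
  obtain ⟨a12, a13, n1, n2, n3, n4', n5, n6⟩ := k7
  have m12 : e8 x w12 ∈ PP (e8 x z8) := a12 ▸ P3_PP x _ _ _
  have m13 : e8 x w13 ∈ PP (e8 x z8) := a13 ▸ P3_PP x _ _ _
  have hw : e8 x w12 ∈ φ '' PP (e8 x z8) := by
    obtain ⟨β, b1, b2, b3⟩ := res x (h1.cm _ (PC _ m13))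
    have sC := e8_CA x (wd_mem [0, 2])
    obtain ⟨δ, d1, -, -⟩ := res x (h1.cm _ sC)
    have c0 : φ (e8 x w13) ∈ φ '' PP (e8 x z8) := ⟨_, m13, rfl⟩
    have key : z8 (δ (β 0)) = β (δ 0) := by
      have := congrArg (fun a => φ (e8 x a) (x 0)) z_facts.2.2.2.1
      simp only [map_mul] at this
      rw [h1.mul _ (mul_mem (PC _ pP) sC) _ (PC _ m13), h1.mul _ (PC _ pP) _ sC,
        h1.mul _ (PC _ m13) _ sC, h1.pp] at this
      simp only [Equiv.Perm.mul_apply, b1, d1, e8_apply] at this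
      exact x.injective this
    have bb : ∀ i, β (β i) = i := fun i => x.injective (by
      rw [← b1, ← b1]
      exact DFunLike.congr_fun (Q2 _ c0) (x i))
    have bi : β⁻¹ = β := inv_eq_of_mul_eq_one_right (Equiv.ext bb)
    have eB : Bf (β 0) (β 2) (β 4) (β 6) = β := (funext (eq_Bf b2)).symm
    have k := k1 (β 0) (β 2) (β 4) (β 6)
    rw [eB] at k
    rcases k bb with k | k | ⟨n, k⟩
    · rw [k, k] at key
      exact absurd key (z_facts.2.2.1 _)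
    · rw [k, k] at key
      exact absurd (δ.injective (z8.injective key)) (z_facts.2.2.1 _)
    have gC : gn n ∈ CA z8 := mem_CA.2 ⟨(gn_mem n).1, (gn_mem n).2.1⟩
    have gi : (gn n)⁻¹ = gn n := inv_eq_of_mul_eq_one_right (gn_mem n).2.2
    have mg : e8 x (β * gn n * β * gn n) ∈ φ '' PP (e8 x z8) := by
      have := Qm _ c0 _ (Qc _ (e8_CA x gC) _ c0)
      rw [← mul_assoc, ← mul_assoc] at this
      nth_rewrite 2 [← inv_eq_of_mul_eq_one_right (Q2 _ c0)] at this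
      rwa [b3, ← map_inv, ← map_mul, bi, gi] at this
    have cg : ∀ i, cmf β n i = (β * gn n * β * gn n) i := fun i => rfl
    simp only [cg] at k
    generalize β * gn n * β * gn n = γ at mg k
    rcases k with ⟨i, k⟩ | ⟨k, i, k'⟩ | ⟨i, j, l, k, k'⟩
    · have := Q2 _ mg
      rw [← map_mul, map_eq_one_iff _ (e8_inj x)] at this
      exact absurd (DFunLike.congr_fun this i) k
    · have := e8_inj x (Q8 _ mg (by
        rw [e8_card, Finset.eq_univ_of_forall fun i => Equiv.Perm.mem_support.2 (k i)]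
        simp))
      exact absurd (DFunLike.congr_fun this i) k'
    · obtain ⟨w, -, e⟩ := k3 i j l k
      have := Qc _ (e8_CA x (wd_mem w)) _ mg
      rwa [← map_inv, ← map_mul, ← map_mul, Equiv.ext k', e, mul_inv_cancel_right] at this
  have sub : PP (e8 x z8) ⊆ φ '' PP (e8 x z8) := fun q hq => by
    obtain ⟨i, j, k, rfl⟩ := PP_P3 x hq
    refine gen3 (fun a => e8 x a ∈ φ '' PP (e8 x z8)) ⟨1, oP, by rw [f1, map_one]⟩
      (fun a b ha hb => by rw [map_mul]; exact Qm _ ha _ hb) hw ?_ ⟨_, pP, h1.pp⟩ i j k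
    have := Qc _ (e8_CA x (wd_mem [1])) _ hw
    rwa [← map_inv, ← map_mul, ← map_mul, z_facts.2.2.2.2.1] at this
  have eq := Set.eq_of_subset_of_ncard_le sub (Set.ncard_image_le (Set.toFinite _))
  have ni : ∀ a b, e8 x a ∈ PP (e8 x z8) → φ (e8 x a) = e8 x b → a ≠ 1 → a ≠ z8 →
      b ≠ 1 ∧ b ≠ z8 := fun a b ha e a1 az => by
    refine ⟨fun e' => a1 (e8_inj x ?_), fun e' => az (e8_inj x ?_)⟩
    · rw [h1.inj _ (PC _ ha) (PP_sq h1.p2 ha) (by rw [e, e', map_one]), map_one]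
    · have m := PP_mul h1.p2 pP ha
      have := h1.inj _ (PC _ m) (PP_sq h1.p2 m) (by
        rw [h1.mul _ (PC _ pP) _ (PC _ ha), h1.pp, e, e', h1.p2])
      rw [eq_inv_of_mul_eq_one_right this, inv_eq_of_mul_eq_one_right h1.p2]
  obtain ⟨i, j, k, u⟩ := PP_P3 x (eq.ge ⟨_, m12, rfl⟩)
  obtain ⟨i', j', k', v⟩ := PP_P3 x (eq.ge ⟨_, m13, rfl⟩)
  have r1 := ni _ _ m12 u n1 n2
  have r2 := ni _ _ m13 v n3 n4'
  have r3 := ni (w12 * w13) (P3 i j k * P3 i' j' k') (by rw [map_mul]; exact PP_mul h1.p2 m12 m13)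
    (by rw [map_mul, map_mul, h1.mul _ (PC _ m12) _ (PC _ m13), u, v]) n5 n6
  obtain ⟨w, -, s1, s2⟩ := k2 i j k i' j' k' r1.1 r1.2 r2.1 r2.2 r3.1 r3.2
  have cC := e8_CA x (wd_mem w)
  refine ⟨_, cC, fun q hq => ?_⟩
  obtain ⟨a, b, c, rfl⟩ := PP_P3 x hq
  refine (gen3 (fun a => e8 x a ∈ CA (e8 x z8) ∧
    φ (e8 x a) = e8 x (wd w) * e8 x a * (e8 x (wd w))⁻¹) ⟨by simp, by simp [f1]⟩
    (fun a b ha hb => ?_) ⟨PC _ m12, ?_⟩ ⟨PC _ m13, ?_⟩ ⟨PC _ pP, ?_⟩ a b c).2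
  · rw [map_mul, h1.mul _ ha.1 _ hb.1, ha.2, hb.2, conj_mul]
    exact ⟨mul_mem ha.1 hb.1, rfl⟩
  · rw [u, ← map_mul, s1, map_mul, mul_inv_cancel_right]
  · rw [v, ← map_mul, s2, map_mul, mul_inv_cancel_right]
  · rw [h1.pp, (mem_CA.1 cC).1.eq, mul_inv_cancel_right]

theorem p4b (kp : KpStmt) : P4bStmt := by
  intro α _ _ h9 p φ φ' T h h8 y8 n4
  obtain ⟨y⟩ : Nonempty (Fin 8 ↪ α) :=
    Function.Embedding.nonempty_of_card_le (by rw [Fintype.card_fin]; omega)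
  obtain ⟨a, -, e⟩ := (kp α h9).1 (e8 y z8) p (by rw [← map_mul, z_facts.1, map_one]) h.1.p2
    (by rw [e8_card, z_facts.2.1, h8])
  have : p = e8 (y.trans a.toEmbedding) z8 := by
    rw [← e, mul_inv_eq_iff_eq_mul]
    ext v
    rw [Equiv.Perm.mul_apply, Equiv.Perm.mul_apply]
    by_cases hv : ∃ k, y k = v
    · obtain ⟨k, rfl⟩ := hv
      rw [e8_apply]
      exact (e8_apply (y.trans a.toEmbedding) z8 k).symm
    · push Not at hv
      rw [e8_not y _ hv, e8_not]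
      exact fun k e => hv k (a.injective e)
  subst this
  exact main _ kp h9 h y8 n4

end Cfsg.Agent.H5.AnP4b
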