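import Cfsg.Agent.H97.JmDefs
import Cfsg.Agent.H33.J4Odd1

/-! Project JM, piece CL: the subgroup of order `660602880` is maximal. -/

set_option autoImplicit false

namespace Cfsg.Agent.H97.JM

open Subgroup

universe u

namespace CL

def tst (n : ℕ) : Bool :=
  n % 660602880 != 0 || n / 660602880 % 5 != 1 || n / 660602880 % 7 != 1 || !ok n ||
    n == 660602880 || n == 879262433280 || n == 86775571046077562880

theorem all_tst : allD tst = true := by decide +kernel

theorem none240 : ∀ d ∈ Nat.divisors 240, 879262433280 / (1331 * d) % 1331 = 1 →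
    ¬ 1331 * d ∣ 879262433280 := by decide +kernel

end CL

theorem pCL (hALLD : ALLD) (hOK : OK.{u}) (hSYL : SYL.{u}) (hTI : TI.{u}) : CL.{u} := by
  intro G _ _ c M F S hM hF hS
  have : Fact (Nat.Prime 5) := ⟨by norm_num⟩
  have : Fact (Nat.Prime 7) := ⟨by norm_num⟩
  have : Fact (Nat.Prime 11) := ⟨by norm_num⟩
  refine ⟨fun e => ?_, fun H hH => ?_⟩
  · rw [e, card_top, c.card] at hM
    norm_num at hM
  have k5 := hSYL G 5 F M H (le_normalizer.trans hF) hH.le (inf_le_right.trans hF)
  have k7 := hSYL G 7 S M H (le_normalizer.trans hS) hH.le (inf_le_right.trans hS)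
  have d := card_dvd_of_le hH.le
  have t := hALLD _ CL.all_tst _ (c.card ▸ H.card_subgroup_dvd_card)
  rw [hM] at k5 k7 d
  simp only [CL.tst, hOK G c H, k5, k7, Nat.mod_eq_zero_of_dvd d, bne_self_eq_false, Bool.not_true,
    Bool.false_or, Bool.or_eq_true, beq_iff_eq] at t
  rcases t with (t | t) | t
  · exact absurd (eq_of_le_of_card_ge hH.le (by rw [t, hM])) hH.ne
  · exfalso
    obtain ⟨P, hP⟩ := Sylow.exists_subgroup_card_pow_prime (G := H) 11 (n := 3) (by
      rw [t]; norm_num)
    obtain ⟨U, hU⟩ := H33.J4O.exists_sylow (p := 11) (A := P.map H.subtype) (k := 3)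
      (by rw [card_map_of_injective H.subtype_injective, hP]) (by rw [c.card]; norm_num)
    have UH : (U : Subgroup G) ≤ H := hU ▸ map_subtype_le P
    have ti := hTI G c U H UH
    obtain ⟨u1, u2⟩ := c.n11 U
    obtain ⟨e, he⟩ := card_dvd_of_le (le_inf UH le_normalizer)
    have d1 := card_dvd_of_le (inf_le_left (a := H) (b := normalizer ((U : Subgroup G) : Set G)))
    have d2 := card_dvd_of_le (inf_le_right (a := H) (b := normalizer ((U : Subgroup G) : Set G)))
    rw [he, u1] at ti d1 d2
    rw [t] at ti d1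
    rw [u2] at d2
    exact CL.none240 e (Nat.mem_divisors.2 ⟨Nat.dvd_of_mul_dvd_mul_left (k := 1331) (by norm_num) d2,
      by norm_num⟩) ti d1
  · exact (card_eq_iff_eq_top H).1 (t.trans c.card.symm)

end Cfsg.Agent.H97.JM
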