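import Cfsg.Agent.H45.OnDefs

/-! One component of the class at each point: the other components are trivial intersection
subgroups. -/

set_option autoImplicit false

namespace Cfsg.Agent.H5.OnL1

open Cfsg.Agent.H45.On

universe u v

theorem l1 : L1Stmt.{u, v} := by
  intro G Ω _ _ _ _ S L K ls k1 b6
  have ex : ∀ z, ∃ M, L.Cp z M ∧ ∀ M', L.Cp z M' → M' = M := fun z => by
    obtain ⟨M, hM⟩ := Set.ncard_eq_one.mp (k1 z)
    have h : ∀ M', L.Cp z M' ↔ M' = M := fun M' => Set.ext_iff.mp hM M'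
    exact ⟨M, (h M).2 rfl, fun M' h' => (h M').1 h'⟩
  have uq : ∀ {z M M'}, L.Cp z M → L.Cp z M' → M = M' := fun {z M M'} h h' => by
    obtain ⟨N, -, hN⟩ := ex z
    rw [hN M h, hN M' h']
  have ml : ∀ z w, z ∈ L.Bl z w := fun z w U _ h _ => h
  have mr : ∀ z w, w ∈ L.Bl z w := fun z w U _ _ h => h
  refine ⟨fun x y M hM hy => ?_, fun x M hM hn g hg => ?_⟩
  · by_contra hne
    have h1 : ∀ m ∈ M, m = 1 := fun m hm => S.faith m fun w => by
      by_cases hw : w = x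
      · rw [hw]; exact S.fx hM.1 m hm
      obtain ⟨g, e1, e2⟩ := S.tr2 x y x w (Ne.symm hne) (Ne.symm hw)
      have h2 : cj g M = M := uq (e1 ▸ K.cp g hM) hM
      have h3 := hy _ (mem_cj.1 (h2.ge hm))
      rw [mul_smul, mul_smul, inv_smul_eq_iff, e2] at h3
      exact h3
    exact S.nab hM.1 fun a ha b _ => by rw [h1 a ha, one_mul, mul_one]
  have hM' := S.conj g hM
  have hn' : ¬ L.Cp (g • x) (cj g M) := fun h => hn (by
    have := K.cp g⁻¹ h
    rwa [inv_smul_smul, cj_inv_cj] at this)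
  generalize g • x = y at hM' hn'
  generalize cj g M = M' at hM' hn' hg
  by_contra hb
  by_cases hxy : x = y
  · subst hxy
    exact hg (K.eq_at hb hM' hM inf_le_right inf_le_left)
  obtain ⟨a, ⟨ha, ha'⟩, ha1⟩ := (Subgroup.bot_or_exists_ne_one _).resolve_left hb
  have P : ∀ {x M}, S.C x M → ¬ L.Cp x M → a ∈ M → ∀ w v, v ∈ L.Bl x w → a • v ∈ L.Bl x w :=
    fun {x M} hM hn ha w v hv U hU hx hw => by
      obtain ⟨N, hN, hUN⟩ := id hx
      have h1 : cj a U = U :=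
        cj_of_comm fun m hm => S.comm hM hN.1 (fun e => hn (e ▸ hN)) a ha m (hUN hm)
      exact h1 ▸ K.on a (hv U hU hx hw)
  have out : ∀ w, w ∉ L.Bl x y → a • w = w := fun w hw => by
    by_contra hc
    have hx : x ≠ w := fun e => hw (e ▸ ml x y)
    have hy : y ≠ w := fun e => hw (e ▸ mr x y)
    have h1 := ls x w _ _ hx hc (P hM hn ha w w (mr x w)) (mr x w)
    have h2 := ls y w _ _ hy hc (P hM' hn' ha' w w (mr y w)) (mr y w)
    have h3 := ls x w x y hx hxy (ml x w) (by rw [← h1, h2]; exact ml y w)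
    exact hw (h3 ▸ mr x w)
  obtain ⟨p, hp⟩ : ∃ p, p ∉ L.Bl x y := by
    by_contra hc
    push Not at hc
    obtain ⟨U, hU, h1, h2⟩ := K.join hxy
    exact K.ne_bot hU ((Subgroup.eq_bot_iff_forall _).mpr fun m hm =>
      S.faith m fun w => K.fx (hc w U hU h1 h2) m hm)
  refine ha1 (S.faith a fun v => ?_)
  by_cases hv : v ∈ L.Bl x y
  swap
  · exact out v hv
  have hpv : p ≠ v := fun e => hp (e ▸ hv)
  obtain ⟨p', h1, h2, h3⟩ : ∃ p' ∈ L.Bl p v, p' ≠ p ∧ p' ≠ v := by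
    obtain ⟨U, hU, ⟨N, hN, hUN⟩, ⟨N', hN', hUN'⟩⟩ := K.join hpv
    have h4 : ({p, v} : Set Ω).ncard < {z | L.On U z}.ncard :=
      lt_of_le_of_lt (Set.ncard_insert_le _ _) (by
        have := b6 U hU
        rw [Set.ncard_singleton]
        exact lt_of_lt_of_le (by decide) this)
    obtain ⟨q, hq, hq'⟩ := Set.exists_mem_notMem_of_ncard_lt_ncard h4
    refine ⟨q, fun U' hU' ⟨N1, hN1, e1⟩ ⟨N2, hN2, e2⟩ => ?_, fun e => hq' (by simp [e]),
      fun e => hq' (by simp [e])⟩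
    rw [K.eq_inf hU' hN1 hN2 e1 e2 hpv, uq hN1 hN, uq hN2 hN', ← K.eq_inf hU hN hN' hUN hUN' hpv]
    exact hq
  have key : ∀ q, q ≠ v → q ∈ L.Bl p v → q ∉ L.Bl x y := fun q hq h h' => hp (by
    rw [← ls x y q v hxy hq h' hv, ls p v q v hpv hq h (mr p v)]
    exact ml p v)
  have h4 := ls p v p p' hpv h2.symm (ml p v) h1
  have h5 := K.bl a (show v ∈ L.Bl p p' from h4 ▸ mr p v)
  rw [out p hp, out p' (key p' h3 h1), h4] at h5
  by_contra hc
  exact key _ hc h5 (P hM hn ha y v hv)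

end Cfsg.Agent.H5.OnL1
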