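import Cfsg.Agent.H35.RfQ

/-! Project RF (row 3318): transfer of the normal structure to the quotient. -/

set_option autoImplicit false

namespace Cfsg.Agent.H5.RfXqc

open Cfsg Subgroup Cfsg.Agent.H18.Rf Cfsg.Agent.H35.RF
open scoped commutatorElement

universe u

variable {G X : Type u} [Group G] [Group X] {z : G} (π : C1 z →* X)

/-- the preimage in `G` -/
def pr (U : Subgroup X) : Subgroup G := (U.comap π).map (C1 z).subtype

theorem coe_mem_pr {U : Subgroup X} {c : C1 z} : (c : G) ∈ pr π U ↔ π c ∈ U := by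
  constructor
  · rintro ⟨n, hn, e⟩
    rwa [← Subtype.ext e]
  · exact fun h => ⟨c, h, rfl⟩

theorem pr_le {U : Subgroup X} : pr π U ≤ C1 z := map_subtype_le _

theorem pr_norm {U : Subgroup X} {c : C1 z} (h : π c ∈ NN U) : (c : G) ∈ NN (pr π U) :=
  le_normalizer_map _ ⟨c, le_normalizer_comap π h, rfl⟩

theorem norm_inf {A B : Subgroup G} {g : G} (ha : g ∈ NN A) (hb : g ∈ NN B) : g ∈ NN (A ⊓ B) :=
  mem_normalizer_iff.2 fun h => and_congr (mem_normalizer_iff.1 ha h) (mem_normalizer_iff.1 hb h)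

theorem comm_l {A : Subgroup G} {g a : G} (hg : g ∈ NN A) (ha : a ∈ A) : ⁅g, a⁆ ∈ A :=
  mul_mem ((mem_normalizer_iff.1 hg a).1 ha) (inv_mem ha)

theorem xqc (hL : LtaStmt.{u}) : XqcStmt.{u} := by
  intro G X A _ _ _ _ _ _ V z W R Q π α φ s ω co _ qt _
  have va := co.vc.toVa
  obtain ⟨-, -, l3, -⟩ := hL G V z W R Q ω va co.a co.ql
  have QR : Q ≤ R := co.ql.sup ▸ le_sup_left
  have WQ : W ≤ Q := co.ql.inf ▸ inf_le_left
  have VM : V ≤ MM V z := va.VR.trans va.RM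
  have Qp : ∀ U : Subgroup X, Q ≤ pr π U := fun U q hq =>
    (coe_mem_pr π (c := ⟨q, (va.RM (QR hq)).2⟩)).2 (by rw [(qt.πk _).2 hq]; exact one_mem _)
  have mH : ∀ c : C1 z, π c ∈ im π (MM V z) → (c : G) ∈ MM V z := by
    rintro c ⟨d, hd, e⟩
    have h1 : ((d⁻¹ * c : C1 z) : G) ∈ Q := (qt.πk _).1 (by rw [map_mul, map_inv, e, inv_mul_cancel])
    have h2 : (c : G) = d * ((d⁻¹ * c : C1 z) : G) := by simp
    rw [h2]
    exact mul_mem hd (va.RM (QR h1))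
  have hR : R ⊔ zpowers (ω : G) ≤ pr π (im π V ⊔ zpowers (π ω)) := by
    refine sup_le (co.ql.sup ▸ sup_le (Qp _) fun v hv => ?_) ?_
    · exact (coe_mem_pr π (c := ⟨v, (VM hv).2⟩)).2 (mem_sup_left ⟨_, hv, rfl⟩)
    · rw [zpowers_le]
      exact (coe_mem_pr π).2 (mem_sup_right (mem_zpowers _))
  have hC : ∀ c : C1 z, π c ∈ C1 (π ω) ↔ ⁅(c : G), (ω : G)⁆ ∈ Q := fun c => by
    rw [mem_centralizer_singleton_iff, ← commutatorElement_eq_one_iff_mul_comm,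
      ← map_commutatorElement, qt.πk]
    rfl
  refine ⟨fun M hM hN => ?_, fun U hU hN => ?_, ?_⟩
  · have PM : pr π M ≤ MM V z := fun g hg =>
      mH ⟨g, pr_le π hg⟩ (hM ((coe_mem_pr π (c := ⟨g, pr_le π hg⟩)).1 hg))
    have nP : MM V z ≤ NN (pr π M) := fun m hm => pr_norm π (c := ⟨m, hm.2⟩) (hN ⟨_, hm, rfl⟩)
    have left : pr π M ≤ R ⊔ zpowers (ω : G) → M ≤ im π V ⊔ zpowers (π ω) := fun h x hx => by
      obtain ⟨c, rfl⟩ := qt.πs x
      exact (coe_mem_pr π).1 (hR (h ((coe_mem_pr π).2 hx)))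
    rcases co.c.irr (pr π M ⊓ V) (le_inf (WQ.trans (Qp _)) va.WV) inf_le_right
      (fun m hm _ => norm_inf (nP hm) hm.1) with h | h
    · refine Or.inl (left fun p hp => co.c.cenM p (PM hp) fun v hv => ?_)
      rw [← h]
      refine mem_inf.2 ⟨?_, comm_l (PM hp).1 hv⟩
      rw [← commutatorElement_inv]
      exact inv_mem (comm_l (nP (VM hv)) hp)
    · have RP : R ≤ pr π M := co.ql.sup ▸ sup_le (Qp _) (h ▸ inf_le_left)
      refine (co.e.nH _ RP PM nP).imp left fun h' x hx => ?_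
      obtain ⟨c, rfl⟩ := qt.πs x
      exact (coe_mem_pr π).1 (h' c (mH c hx.1) (QR ((hC c).1 hx.2)))
  · rcases co.c.irr (pr π U ⊓ V) (le_inf (WQ.trans (Qp _)) va.WV) inf_le_right
      (fun m hm h => norm_inf (pr_norm π (c := ⟨m, hm.2⟩)
        (hN ⟨⟨_, hm, rfl⟩, (hC ⟨m, hm.2⟩).2 (l3 m hm h)⟩)) hm.1) with h | h
    · refine Or.inl (eq_bot_iff.2 fun x hx => ?_)
      obtain ⟨v, hv, rfl⟩ := hU hx
      have : (v : G) ∈ W := h ▸ ⟨(coe_mem_pr π).2 hx, hv⟩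
      exact (qt.πk v).2 (WQ this)
    · refine Or.inr (le_antisymm hU ?_)
      rintro _ ⟨v, hv, rfl⟩
      have : (v : G) ∈ pr π U ⊓ V := h.symm ▸ hv
      exact (coe_mem_pr π).1 this.1
  · intro x hx
    obtain ⟨c, rfl⟩ := qt.πs x
    have hc := mH c hx.1
    refine (coe_mem_pr π).1 (hR (co.c.cenM c hc fun v hv => ?_))
    rw [← co.ql.inf]
    refine ⟨?_, comm_l hc.1 hv⟩
    have h1 : π ⁅c, (⟨v, (VM hv).2⟩ : C1 z)⁆ = 1 := by
      rw [map_commutatorElement, commutatorElement_eq_one_iff_mul_comm]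
      exact (hx.2 _ ⟨_, hv, rfl⟩).symm
    exact (qt.πk _).1 h1

theorem eqns_RfXqc : True := by
  have := @pr.eq_1.{0}
  trivial

end Cfsg.Agent.H5.RfXqc
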