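import Cfsg.Agent.H74.UVDefs
import Cfsg.Agent.H58.LinSq
import Cfsg.Agent.H11.Basic

/-! Project UV: restriction to a supplement of the scalars stays irreducible. -/

set_option autoImplicit false

namespace Cfsg.Agent.H5.UvIrry

open Cfsg Cfsg.Agent.H77.Sg Cfsg.Agent.H74.UV

universe u

theorem irry : IrryStmt.{u} := by
  intro E K _ _ _ _ _ σ B q R t G Y hC hZ hYG hs ν hirr
  have : Finite (K ≃ₗ[E] K) :=
    Finite.of_injective (fun g : K ≃ₗ[E] K => (g : K → K)) DFunLike.coe_injective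
  have htop : Y.subgroupOf G ⊔ Subgroup.center G = ⊤ := by
    rw [eq_top_iff]
    rintro ⟨g, hg⟩ -
    obtain ⟨z, hz, hy⟩ := hs g hg
    have hzG : mulH E K z ∈ G := (hC.mem z).2 ⟨z, hz, 1, one_mem _, (mul_one z).symm⟩
    have hc : (⟨mulH E K z, hzG⟩ : G) ∈ Subgroup.center G :=
      Subgroup.mem_center_iff.2 fun k => Subtype.ext (hZ.com ⟨z, hz⟩ k.1).symm
    have e : (⟨g, hg⟩ : G) = (⟨mulH E K z, hzG⟩ : G)⁻¹ * (⟨mulH E K z, hzG⟩ * ⟨g, hg⟩) := by
      rw [inv_mul_cancel_left]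
    rw [e]
    exact mul_mem (Subgroup.mem_sup_right (inv_mem hc)) (Subgroup.mem_sup_left hy)
  have h1 := H58.isIrr_restrict_of_sup_center hirr htop
  exact H11.isIrrCharacter_comp_of_surjective h1
    (Subgroup.subgroupOfEquivOfLe hYG).symm.toMonoidHom
    (Subgroup.subgroupOfEquivOfLe hYG).symm.surjective

end Cfsg.Agent.H5.UvIrry
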